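import Cfsg.Agent.L0.CosetChain

/-! Generated coset table certificate. -/

set_option autoImplicit false
set_option maxRecDepth 100000

open Cfsg.Agent.L0

namespace Cfsg.Agent.H3.L32.Tc1

noncomputable def t0 : BT := .leaf (nat_lit 0x8da46431a50032cd0a4ad2e470009a14ed0a65406002545b46951a4240050001404425930012c0812040300800000)

noncomputable def tree : BT := t0

noncomputable def row : ℕ → ℕ := rowOf tree (nat_lit 3) (nat_lit 7) (nat_lit 62) (nat_lit 0x3fffffffffffffff)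

noncomputable def cols : List Col := [⟨nat_lit 22, nat_lit 0, [([nat_lit 32], nat_lit 0), ([nat_lit 22, nat_lit 22], nat_lit 0)]⟩,
  ⟨nat_lit 32, nat_lit 0, [([nat_lit 22], nat_lit 0), ([nat_lit 52, nat_lit 32, nat_lit 42, nat_lit 22, nat_lit 42], nat_lit 0)]⟩,
  ⟨nat_lit 42, nat_lit 1, [([nat_lit 42], nat_lit 0), ([nat_lit 22, nat_lit 42, nat_lit 32, nat_lit 52, nat_lit 32], nat_lit 0), ([nat_lit 32, nat_lit 52, nat_lit 32, nat_lit 42, nat_lit 22], nat_lit 0)]⟩,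
  ⟨nat_lit 52, nat_lit 1, [([nat_lit 52], nat_lit 0), ([nat_lit 42, nat_lit 52, nat_lit 42], nat_lit 0), ([nat_lit 32, nat_lit 42, nat_lit 22, nat_lit 42, nat_lit 32], nat_lit 0)]⟩]

noncomputable def erots : List (List ℕ × ℕ) := []

noncomputable def gens : List ℕ := [nat_lit 22, nat_lit 32, nat_lit 42, nat_lit 52]

noncomputable def chk : ℕ → Bool := chkRow0 row (nat_lit 6) (nat_lit 0x7) (nat_lit 0x78) (nat_lit 7) (nat_lit 0x7) (nat_lit 0) (nat_lit 0x7) (nat_lit 3) (nat_lit 0x7f) (nat_lit 0xc00) [] cols gens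

theorem b0 : allR chk 3 0 = true := by decide +kernel

noncomputable def T : CT := ⟨row, nat_lit 6, nat_lit 6, nat_lit 0x7, nat_lit 0x78, nat_lit 7, nat_lit 0x7, nat_lit 0, nat_lit 0x7, nat_lit 3, nat_lit 0x7f, nat_lit 0xc00, nat_lit 62, nat_lit 62, nat_lit 0, nat_lit 6, [], cols, erots, gens⟩

theorem all : ∀ c < 6, chk c = true := fun c hc =>
  allR_glue (d := 3) (n := 1) (forall_lt_succ' forall_lt_zero' b0) c (lt_of_lt_of_le hc (by norm_num))

/-- the relators used -/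
def R : List (List ℕ) := [[nat_lit 1, nat_lit 2],
  [nat_lit 3, nat_lit 3],
  [nat_lit 4, nat_lit 4],
  [nat_lit 2, nat_lit 3, nat_lit 1, nat_lit 3, nat_lit 2, nat_lit 4],
  [nat_lit 4, nat_lit 3, nat_lit 4, nat_lit 3],
  [nat_lit 1, nat_lit 1, nat_lit 1]]

theorem cert : Cert T (R.map fun r => (r, 0)) ([3, 4].map fun y => (y, 0)) 12 10 [1, 2, 3, 4] :=
  ⟨by decide +kernel, ⟨[[(0, 0), (5, 0)], [(0, 1), (3, 4)], [(1, 0), (3, 1), (3, 3)], [(2, 0), (4, 0), (3, 5)]], [], by decide +kernel⟩, by decide +kernel, Or.inl ⟨rfl, all⟩⟩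

theorem bound {Γ : Type*} [Group Γ] {x : ℕ → Γ} (hR : ∀ r ∈ R, ev x r = 1) {n : ℕ}
    (h : CardLe x [3, 4] n) : CardLe x [1, 2, 3, 4] (6 * n) :=
  cert.cardLe rfl hR h

end Cfsg.Agent.H3.L32.Tc1
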