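import Cfsg.Agent.H3.Mu.L32.Tab

/-! Generated labelled table of a central extension. -/

set_option autoImplicit false
set_option maxRecDepth 100000

open Cfsg.Agent.L0

namespace Cfsg.Agent.H3.L32

noncomputable def L0Erowt0 : BT := .leaf (nat_lit 0x7bee9a7ccbde28c21a2eec40513066948a148642)

noncomputable def L0Erowtree : BT := L0Erowt0

noncomputable def L0Erow : ℕ → ℕ := rowOf L0Erowtree (nat_lit 3) (nat_lit 7) (nat_lit 20) (nat_lit 0xfffff)

noncomputable def L0E : ℕ → ℕ → ℕ := pT L0Erow (nat_lit 4) (nat_lit 15)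

def L0RL : List (List ℕ × ℕ) := [([nat_lit 0, nat_lit 0], nat_lit 1),
  ([nat_lit 1, nat_lit 2], nat_lit 0),
  ([nat_lit 2, nat_lit 1], nat_lit 0),
  ([nat_lit 3, nat_lit 3], nat_lit 1),
  ([nat_lit 4, nat_lit 4], nat_lit 1),
  ([nat_lit 0, nat_lit 2, nat_lit 0, nat_lit 1, nat_lit 0, nat_lit 3], nat_lit 0),
  ([nat_lit 2, nat_lit 3, nat_lit 1, nat_lit 3, nat_lit 2, nat_lit 4], nat_lit 0),
  ([nat_lit 4, nat_lit 3, nat_lit 4, nat_lit 3], nat_lit 1),
  ([nat_lit 1, nat_lit 1, nat_lit 1], nat_lit 0),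
  ([nat_lit 0, nat_lit 4, nat_lit 0, nat_lit 4, nat_lit 0, nat_lit 4], nat_lit 0),
  ([nat_lit 0, nat_lit 1, nat_lit 3, nat_lit 2, nat_lit 0, nat_lit 4, nat_lit 2, nat_lit 3], nat_lit 0)]

noncomputable def L0chkf : ℕ → Bool := relChkL L0E (nat_lit 1) (nat_lit 1) (nat_lit 1) (nat_lit 2) (nat_lit 8) [nat_lit 0, nat_lit 1, nat_lit 2, nat_lit 3, nat_lit 4] L0RL

theorem L0chkb0 : allR L0chkf 3 0 = true := by decide +kernel

theorem L0chk : ∀ c < 8, L0chkf c = true := fun c hc =>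
  allR_glue (d := 3) (n := 1) (forall_lt_succ' forall_lt_zero' L0chkb0) c (lt_of_lt_of_le hc (by norm_num))

theorem L0rep : Rep 5 R (ZMod 2) 1 (valL L0RL 2) :=
  rep_of_chk (by decide +kernel) (by decide) (by decide) (by decide +kernel) (by decide +kernel)
    (by decide +kernel) le_rfl L0chk

end Cfsg.Agent.H3.L32
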