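import Cfsg.Agent.H3.Mu.L32.Tab
import Cfsg.Agent.H3.Fld

/-! Generated vectors and matrices. -/

set_option autoImplicit false
set_option maxRecDepth 100000

open Cfsg.Agent.L0

namespace Cfsg.Agent.H3.L32

open Vec

noncomputable def Vt0 : BT := .leaf (nat_lit 0x1dcd51)

noncomputable def Vtree : BT := Vt0

noncomputable def V : ℕ → ℕ := rowOf Vtree (nat_lit 3) (nat_lit 7) (nat_lit 3) (nat_lit 0x7)

noncomputable def St0 : BT := .leaf (nat_lit 0x19a948)

noncomputable def Stree : BT := St0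

noncomputable def S : ℕ → ℕ := rowOf Stree (nat_lit 3) (nat_lit 7) (nat_lit 3) (nat_lit 0x7)

/-- the format -/
abbrev P : Fm := ⟨2, 1, 1, 3⟩

def Cs : List (List ℕ) := [[nat_lit 0x1, nat_lit 0x3, nat_lit 0x4],
  [nat_lit 0x2, nat_lit 0x4, nat_lit 0x1]]

def CU : List ℕ := [nat_lit 0x1, nat_lit 0x2, nat_lit 0x5]

def CW : List ℕ := [nat_lit 0x1, nat_lit 0x2, nat_lit 0x5]

def CI : List ℕ := [nat_lit 0x1, nat_lit 0x2, nat_lit 0x4]

def Bs : List ℕ := [nat_lit 0, nat_lit 1, nat_lit 2]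

def Ss : List (List ℕ) := [[nat_lit 0x1, nat_lit 0x2, nat_lit 0x4]]

noncomputable def E : List ℕ → ℕ → ℕ → Bool := xE1

noncomputable def ok : ℕ → Bool := okL P

noncomputable def vchkf : ℕ → Bool := rowChk ok E Cs [nat_lit 0, nat_lit 1] V T (nat_lit 7)

noncomputable def schkf : ℕ → Bool := sortB V S (nat_lit 7)

theorem vchkb0 : allR vchkf 3 0 = true := by decide +kernel
theorem schkb0 : allR schkf 3 0 = true := by decide +kernel

theorem vchk : ∀ c < 7, vchkf c = true := fun c hc =>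
  allR_glue (d := 3) (n := 1) (forall_lt_succ' forall_lt_zero' vchkb0) c (lt_of_lt_of_le hc (by norm_num))

theorem schk : ∀ c < 7, schkf c = true := fun c hc =>
  allR_glue (d := 3) (n := 1) (forall_lt_succ' forall_lt_zero' schkb0) c (lt_of_lt_of_le hc (by norm_num))

theorem data : Vec.LineData P E Cs 2 7 T (nat_lit 3) Bs CU CI V :=
  ⟨S, CW, nat_lit 0x7, vchk, schk, by decide +kernel, by decide +kernel⟩

/-- the numbering of the coordinates -/
def e : Fin 3 ≃ Fin P.n := Equiv.refl _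

/-- the matrices -/
noncomputable def M (i : ℕ) : Matrix (Fin 3) (Fin 3) (ZMod 2) := Vec.mat P e (1 : ZMod 2) (nthW Cs i)

theorem cod : Vec.AllCod P e (1 : ZMod 2) Cs 2 CU CI :=
  ⟨by decide +kernel, by decide +kernel, by decide +kernel⟩

theorem snd {F : Type*} [Field F] {φ : ZMod 2 →+* F} (h : Emb φ 2 1 (1 : ZMod 2)) :
    Vec.SoundL P e (φ (1 : ZMod 2)) ⊤ E :=
  Vec.soundL_xE1 rfl (by exact_mod_cast h.char)

theorem model {F : Type*} [Field F] {φ : ZMod 2 →+* F} (h : Emb φ 2 1 (1 : ZMod 2))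
    {G : Type*} [Group G] (ρ : G →* Matrix (Fin 3) (Fin 3) F) (hρ : Function.Injective ρ)
    (hz : ∀ z ∈ Subgroup.center G, ∃ a : F, ρ z = a • 1) (hg : ∀ i < 2, ∃ x, ρ x = (M i).map φ) :
    ∃ K : Subgroup (G ⧸ Subgroup.center G), Model K 7 2 T (nat_lit 3 :: Bs) :=
  data.model' φ (by decide) (by decide) (by decide) h.indep (snd h) cod ρ hρ hz hg

end Cfsg.Agent.H3.L32
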